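import Cfsg.Agent.H502.IF.BQ
import Cfsg.Agent.H465.IF.BPair
import Cfsg.Agent.BabyU.F8Inner

/-!
# S5719, Baby Monster: `A` contains a product of two commuting transpositions (helper502)

Then `A` contains an involution conjugate into `M = 2.²E₆(2)`.
-/

set_option autoImplicit false

namespace Cfsg.Agent.H502.IFB.Com

open Cfsg Subgroup
open Cfsg.Agent.BabyM Cfsg.Agent.BabyM.Model Cfsg.Agent.BabyU.ClosModel Cfsg.Agent.H209.Fxy Cfsg.Agent.H999.IFB
open Cfsg.Agent.H502.IFB.Q Cfsg.Agent.BabyU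

/-- elements of `C(t)` outside the subgroup of index two -/
theorem exists_mem_MM {F : Subgroup Inst.M.G} (hF : F ≤ centralizer ({tt Instance.all} : Set Inst.M.G)) (h3 : 2 < Nat.card F) :
    ∃ f ∈ F, f ≠ 1 ∧ f ∈ MM Inst.M := by
  have hI := F8Inner.inner
  have hfin : Finite F := inferInstance
  obtain ⟨a, ha1⟩ : ∃ a : F, a ≠ 1 := by
    have : Nontrivial F := Finite.one_lt_card_iff_nontrivial.1 (by omega)
    exact exists_ne 1
  by_cases ha : (a : Inst.M.G) ∈ MM Inst.M
  · exact ⟨a, a.2, fun h => ha1 (Subtype.ext h), ha⟩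
  obtain ⟨b, hb⟩ : ∃ b : F, b ∉ ({1, a} : Set F) := by
    by_contra hcon
    push Not at hcon
    have h1 : (Set.univ : Set F) ⊆ {1, a} := fun x _ => hcon x
    have h2 := Set.ncard_le_ncard h1 (Set.toFinite _)
    rw [Set.ncard_univ] at h2
    have h4 : ({1, a} : Set F).ncard ≤ 2 := (Set.ncard_insert_le _ _).trans (by rw [Set.ncard_singleton])
    omega
  rw [Set.mem_insert_iff, Set.mem_singleton_iff, not_or] at hb
  by_cases hbM : (b : Inst.M.G) ∈ MM Inst.M
  · exact ⟨b, b.2, fun h => hb.1 (Subtype.ext h), hbM⟩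
  · refine ⟨a * (b : Inst.M.G)⁻¹, F.mul_mem a.2 (F.inv_mem b.2), fun h => hb.2 (Subtype.ext (mul_inv_eq_one.1 h).symm), ?_⟩
    refine hI.M_index a (mem_top _) _ (mem_top _) (mem_centralizer_singleton_iff.1 (hF a.2))
      (mem_centralizer_singleton_iff.1 (hF (F.inv_mem b.2))) ha fun h => hbM ?_
    have := (MM Inst.M).inv_mem h
    rwa [inv_inv] at this

/-- **a product of two commuting transpositions in `A`** -/
theorem exists_M {A : Subgroup Inst.M.G} {Γ : Subgroup (MulAut Inst.M.G)} (h : IF A Γ) {t e : Inst.M.G}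
    (ht : IsConj (tt Instance.all) t) (he : IsConj (tt Instance.all) e) (hte : t * e = e * t) (hne : t ≠ e)
    (hA : t * e ∈ A) : ∃ v ∈ A, orderOf v = 2 ∧ ∃ g, g * v * g⁻¹ ∈ MM Inst.M := by
  have hs := simp
  have hf : Fact (Nat.Prime 2) := ⟨Nat.prime_two⟩
  have hsq : ∀ {x : Inst.M.G}, IsConj (tt Instance.all) x → x * x = 1 := by
    intro x hx
    obtain ⟨g, rfl⟩ := isConj_iff.1 hx
    calc (g * tt Instance.all * g⁻¹) * (g * tt Instance.all * g⁻¹) = g * (tt Instance.all * tt Instance.all) * g⁻¹ := by group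
      _ = 1 := by rw [t_sq]; group
  have h2 : orderOf (t * e) = 2 := by
    refine orderOf_eq_prime ?_ ?_
    · rw [pow_two]
      calc t * e * (t * e) = t * (e * t) * e := by group
        _ = t * (t * e) * e := by rw [hte]
        _ = (t * t) * (e * e) := by group
        _ = 1 := by rw [hsq ht, hsq he, one_mul]
    · intro h1
      apply hne
      have h3 := eq_inv_of_mul_eq_one_left h1
      rw [h3]
      exact (eq_inv_of_mul_eq_one_left (hsq he)).symm
  set D : Subgroup Inst.M.G := centralizer ({t} : Set Inst.M.G) ⊓ centralizer ({e} : Set Inst.M.G) with hD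
  have hDu : D ≤ centralizer ({t * e} : Set Inst.M.G) := by
    intro x hx
    have h3 := mem_centralizer_singleton_iff.1 (mem_inf.1 hx).1
    have h4 := mem_centralizer_singleton_iff.1 (mem_inf.1 hx).2
    rw [mem_centralizer_singleton_iff, ← mul_assoc, h3, mul_assoc, h4, ← mul_assoc]
  have hcard : Nat.card D * (13571955000 * 3968055) = 4154781481226426191177580544000000 ∨
      Nat.card D * (13571955000 * 23113728) = 4154781481226426191177580544000000 :=
    H465.IF.BPair.pair_card ht he hne hte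
  have hD16 : 2 ^ 16 ∣ Nat.card D ∧ 13244506413465600 ≤ Nat.card D := by
    rcases hcard with h3 | h3
    · have h4 : Nat.card D = 77148607752437760 := by omega
      rw [h4]; norm_num
    · have h4 : Nat.card D = 13244506413465600 := by omega
      rw [h4]; norm_num
  obtain ⟨R', hR'⟩ := Sylow.exists_subgroup_card_pow_prime 2 hD16.1
  set R : Subgroup Inst.M.G := R'.map D.subtype with hR
  have hRD : R ≤ D := by
    rintro _ ⟨x, -, rfl⟩
    exact x.2
  have hRc : Nat.card R = 2 ^ 16 := by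
    rw [← hR', hR]
    exact Nat.card_congr (R'.equivMapOfInjective D.subtype D.subtype_injective).symm.toEquiv
  -- the index
  have hidx : (centralizer ({t * e} : Set Inst.M.G)).index ≤ 313698476298240000 := by
    have h3 := (centralizer ({t * e} : Set Inst.M.G)).card_mul_index
    rw [card_G] at h3
    have h4 : 13244506413465600 ≤ Nat.card (centralizer ({t * e} : Set Inst.M.G)) := hD16.2.trans (card_le_of_le hDu)
    by_contra hcon
    push Not at hcon
    have h5 : 13244506413465600 * 313698476298240001 ≤ Nat.card (centralizer ({t * e} : Set Inst.M.G)) *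
        (centralizer ({t * e} : Set Inst.M.G)).index := Nat.mul_le_mul h4 hcon
    rw [h3] at h5
    norm_num at h5
  have h5 := lt_of_lt_of_le ((IF.E2' h na hA h2).2.2.2.2 R (hRD.trans hDu)).1 hidx
  have h6 : A.relIndex R < 2 ^ 12 := by
    by_contra hcon
    push Not at hcon
    have h7 : (2 ^ 12) ^ 5 ≤ A.relIndex R ^ 5 := Nat.pow_le_pow_left hcon 5
    have h8 := lt_of_le_of_lt h7 h5
    norm_num at h8
  have h7 := card_inf A R
  rw [hRc] at h7
  have h8 : 2 < Nat.card (A ⊓ R : Subgroup Inst.M.G) := by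
    by_contra hcon
    push Not at hcon
    have h9 : Nat.card (A ⊓ R : Subgroup Inst.M.G) * A.relIndex R ≤ 2 * 2 ^ 12 := Nat.mul_le_mul hcon h6.le
    rw [h7] at h9
    norm_num at h9
  -- conjugate `t` to the base
  obtain ⟨g, hg⟩ := isConj_iff.1 ht.symm
  set F : Subgroup Inst.M.G := (A ⊓ R).map (MulAut.conj g).toMonoidHom with hF
  have hFc : 2 < Nat.card F := by
    rw [hF, ← Nat.card_congr ((A ⊓ R).equivMapOfInjective (MulAut.conj g).toMonoidHom (MulAut.conj g).injective).toEquiv]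
    exact h8
  have hFt : F ≤ centralizer ({tt Instance.all} : Set Inst.M.G) := by
    rintro _ ⟨x, hx, rfl⟩
    have h3 := mem_centralizer_singleton_iff.1 (mem_inf.1 (hRD (mem_inf.1 hx).2)).1
    rw [mem_centralizer_singleton_iff, ← hg]
    show (g * x * g⁻¹) * (g * t * g⁻¹) = (g * t * g⁻¹) * (g * x * g⁻¹)
    calc (g * x * g⁻¹) * (g * t * g⁻¹) = g * (x * t) * g⁻¹ := by group
      _ = g * (t * x) * g⁻¹ := by rw [h3]
      _ = _ := by group
  obtain ⟨f, ⟨x, hx, rfl⟩, hf1, hfM⟩ := exists_mem_MM hFt hFc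
  have hx1 : x ≠ 1 := by
    rintro rfl
    exact hf1 (map_one _)
  have hRp : IsPGroup 2 R := IsPGroup.of_card hRc
  obtain ⟨k, hk⟩ := (IsPGroup.iff_orderOf.1 hRp) ⟨x, (mem_inf.1 hx).2⟩
  have hk' : orderOf x = 2 ^ k := by
    rw [← hk]
    exact orderOf_injective R.subtype R.subtype_injective ⟨x, (mem_inf.1 hx).2⟩
  have hk0 : k ≠ 0 := by
    rintro rfl
    rw [pow_zero, orderOf_eq_one_iff] at hk'
    exact hx1 hk'
  obtain ⟨j, rfl⟩ := Nat.exists_eq_succ_of_ne_zero hk0
  refine ⟨x ^ 2 ^ j, A.pow_mem (mem_inf.1 hx).1 _, ?_, g, ?_⟩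
  · rw [orderOf_pow_of_dvd (by positivity) (by rw [hk']; exact pow_dvd_pow 2 (Nat.le_succ j)), hk', Nat.succ_eq_add_one,
      pow_succ, Nat.mul_div_cancel_left _ (by positivity)]
  · rw [← conj_pow]
    exact (MM Inst.M).pow_mem hfM _

/-- **Every involution of `A`** -/
theorem exists_M' {A : Subgroup Inst.M.G} {Γ : Subgroup (MulAut Inst.M.G)} (h : IF A Γ) {u : Inst.M.G} (hu : u ∈ A)
    (h2 : orderOf u = 2) : ∃ v ∈ A, orderOf v = 2 ∧ ∃ g, g * v * g⁻¹ ∈ MM Inst.M := by
  have h3 : u * u = 1 := by rw [← pow_two, ← h2, pow_orderOf_eq_one]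
  have h4 : u ≠ 1 := by
    rintro rfl
    rw [orderOf_one] at h2
    omega
  rcases F8Inner.inner.classes u (mem_top u) h3 h4 with ⟨g, -, hg⟩ | ⟨d, ⟨g, -, hg⟩, hc, ⟨g', -, hg'⟩⟩
  · exact ⟨u, hu, h2, g⁻¹, by rwa [inv_inv]⟩
  · have hd : IsConj (tt Instance.all) d := isConj_iff.2 ⟨g, hg⟩
    have he : IsConj (tt Instance.all) (u * d) := isConj_iff.2 ⟨g', hg'⟩
    have hdd : d * d = 1 := by
      rw [← hg]
      calc (g * tt Instance.all * g⁻¹) * (g * tt Instance.all * g⁻¹) = g * (tt Instance.all * tt Instance.all) * g⁻¹ := by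
            group
        _ = 1 := by rw [t_sq]; group
    have e1 : d * (u * d) = u := by rw [← mul_assoc, ← hc, mul_assoc, hdd, mul_one]
    have e2 : u * d * d = u := by rw [mul_assoc, hdd, mul_one]
    refine exists_M h hd he (e1.trans e2.symm) ?_ (by rw [e1]; exact hu)
    intro e
    apply h4
    rw [← e1, ← e, hdd]

end Cfsg.Agent.H502.IFB.Com
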