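import Cfsg.Agent.H502.IF.BCom
import Cfsg.Agent.H861.IF.BClsB

/-!
# S5719, Baby Monster, part (3) (helper502, helper861, helper465)

`exists_AB` : if `A` contains an involution, it contains a 2A- or a 2B-element.
-/

set_option autoImplicit false

namespace Cfsg.Agent.H502.IFB

open Cfsg Cfsg.Agent.BabyM Cfsg.Agent.BabyU.ClosModel Cfsg.Agent.H209.Fxy

theorem exists_AB {A : Subgroup Inst.M.G} {Γ : Subgroup (MulAut Inst.M.G)} (h : IF A Γ)
    (hev : ∃ u ∈ A, orderOf u = 2) :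
    (∃ a ∈ A, IsConj (tt Instance.all) a) ∨ (∃ a ∈ A, IsConj (zz Instance.all) a) := by
  obtain ⟨u, hu, h2⟩ := hev
  obtain ⟨v, hv, hv2, g, hg⟩ := Com.exists_M' h hu h2
  have h3 : (g * v * g⁻¹) * (g * v * g⁻¹) = 1 := by
    calc (g * v * g⁻¹) * (g * v * g⁻¹) = g * v ^ 2 * g⁻¹ := by rw [pow_two]; group
      _ = 1 := by rw [← hv2, pow_orderOf_eq_one]; group
  obtain ⟨k, hk⟩ := H861.IFB.conj_pp h3 hg
  refine Q.of_conj_Q h hv hv2 (k * g) ?_
  have h4 : k * g * v * (k * g)⁻¹ = k * (g * v * g⁻¹) * k⁻¹ := by group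
  rw [h4]
  exact hk

end Cfsg.Agent.H502.IFB
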